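import Cfsg.Agent.Lib.Leech.Count

/-!
# The numbers of lattice vectors of squared lengths 32, 48 and 64
-/

set_option autoImplicit false

namespace Cfsg.Agent.Lib.Leech

open Cfsg Cfsg.Agent.Lib.Golay Cfsg.Agent.Lib.Compute

/-- The code as a finset. -/
noncomputable def CSf : Finset (Finset GolayPt) :=
  (Finset.range 4096).image fun k => enc.finOf (word k)

theorem mem_CSf {A : Finset GolayPt} : A ∈ CSf ↔ A ∈ CS := by
  rw [CS, mem_supports_iff]
  simp only [CSf, Finset.mem_image, Finset.mem_range]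
  constructor
  · rintro ⟨k, hk, rfl⟩
    exact ⟨k, hk, rfl⟩
  · rintro ⟨k, hk, rfl⟩
    exact ⟨k, hk, rfl⟩

theorem ind_eq_of {A A' : Finset GolayPt} (h : ∀ i, ind A i = ind A' i) : A = A' := by
  ext i
  have := h i
  unfold ind at this
  by_cases h1 : i ∈ A <;> by_cases h2 : i ∈ A' <;> simp_all

theorem data_unique {x : GolayPt → ℤ} {m m' : ℤ} {A A' : Finset GolayPt} (hm : m = 0 ∨ m = 1)
    (hm' : m' = 0 ∨ m' = 1) (h : ∀ i, x i % 4 = (m + 2 * ind A i) % 4)
    (h' : ∀ i, x i % 4 = (m' + 2 * ind A' i) % 4) : m = m' ∧ A = A' := by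
  have key : m = m' ∧ ∀ i, ind A i = ind A' i := by
    have h1 := h none
    have h2 := h' none
    have h3 := ind_cases A none
    have h4 := ind_cases A' none
    have h5 : m = m' := by
      rcases h3 with h3 | h3 <;> rcases h4 with h4 | h4 <;> rw [h3] at h1 <;> rw [h4] at h2 <;> omega
    refine ⟨h5, fun i => ?_⟩
    have h6 := h i
    have h7 := h' i
    have h8 := ind_cases A i
    have h9 := ind_cases A' i
    rw [h5] at h6
    omega
  exact ⟨key.1, ind_eq_of key.2⟩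

theorem set_eq (N : ℕ) (hN : N ≤ 64) :
    {x : GolayPt → ℤ | x ∈ leechLattice ∧ sqNorm x = (N : ℤ)} =
      ((CSf.biUnion fun A => Tset ((0 : ℕ) : ℤ) A N ∪ Tset ((1 : ℕ) : ℤ) A N : Finset _) : Set _) := by
  ext x
  simp only [Set.mem_ofPred_eq, Finset.coe_biUnion, Set.mem_iUnion, Finset.mem_coe, Finset.mem_union,
    exists_prop, mem_leechLattice]
  constructor
  · rintro ⟨hx, hN'⟩
    obtain ⟨m, A, hm, hA⟩ := data_of_leech hx
    refine ⟨A, mem_CSf.2 hA.1, ?_⟩
    rcases hm with rfl | rfl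
    · exact Or.inl ((mem_Tset_iff hA.1 hN).2 ⟨hA, hN'⟩)
    · exact Or.inr ((mem_Tset_iff hA.1 hN).2 ⟨hA, hN'⟩)
  · rintro ⟨A, hA, h | h⟩
    · have h1 := (mem_Tset_iff (mem_CSf.1 hA) hN).1 h
      exact ⟨leech_of_data h1.1, h1.2⟩
    · have h1 := (mem_Tset_iff (mem_CSf.1 hA) hN).1 h
      exact ⟨leech_of_data h1.1, h1.2⟩

theorem count_main (N : ℕ) (hN : N ≤ 64) (G : ℕ → ℕ)
    (hG : ∀ w, (w = 0 ∨ w = 8 ∨ w = 12 ∨ w = 16 ∨ w = 24) → cntW 0 w N + cntW 1 w N = G w) (total : ℕ)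
    (htot : sumB (fun k => G (Enc.popAux (word k) 24)) 4096 = total) :
    {x : GolayPt → ℤ | x ∈ leechLattice ∧ sqNorm x = (N : ℤ)}.ncard = total := by
  rw [set_eq N hN, Set.ncard_coe_finset, Finset.card_biUnion]
  · have h1 : ∀ A ∈ CSf, (Tset ((0 : ℕ) : ℤ) A N ∪ Tset ((1 : ℕ) : ℤ) A N).card = G A.card := by
      intro A hA
      rw [Finset.card_union_of_disjoint, card_Tset 0 (Or.inl rfl), card_Tset 1 (Or.inr rfl)]
      · exact hG _ (CS_card (mem_CSf.1 hA))
      · rw [Finset.disjoint_left]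
        intro x hx hx'
        have h2 := (mem_Tset.1 hx)
        have h3 := (mem_Tset.1 hx')
        have h4 := (mem_sI.1 (h2.1 none)).2
        have h5 := (mem_sI.1 (h3.1 none)).2
        have h6 := ind_cases A none
        push_cast at h4 h5
        rcases h6 with h6 | h6 <;> rw [h6] at h4 h5 <;> omega
    rw [Finset.sum_congr rfl h1, CSf, Finset.sum_image, ← htot, sumB_eq]
    · apply Finset.sum_congr rfl
      intro k _
      rw [card_enc_finOf]
    · intro a ha b hb hab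
      have ha' : a < 4096 := Finset.mem_range.1 ha
      have hb' : b < 4096 := Finset.mem_range.1 hb
      exact word_injOn ha' hb' (enc.finOf_injOn (word_lt ha') (word_lt hb') hab)
  · intro A hA A' hA' hne
    rw [Function.onFun, Finset.disjoint_left]
    intro x hx hx'
    apply hne
    have key : ∀ {m : ℕ} {B : Finset GolayPt}, x ∈ Tset ((m : ℕ) : ℤ) B N →
        ∀ i, x i % 4 = ((m : ℤ) + 2 * ind B i) % 4 := fun h i => (mem_sI.1 ((mem_Tset.1 h).1 i)).2
    rcases Finset.mem_union.1 hx with h1 | h1 <;> rcases Finset.mem_union.1 hx' with h2 | h2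
    · exact (data_unique (Or.inl rfl) (Or.inl rfl) (key h1) (key h2)).2
    · exact (data_unique (Or.inl rfl) (Or.inr rfl) (key h1) (key h2)).2
    · exact (data_unique (Or.inr rfl) (Or.inl rfl) (key h1) (key h2)).2
    · exact (data_unique (Or.inr rfl) (Or.inr rfl) (key h1) (key h2)).2

/-- A table on the weights. -/
def tbl (c0 c8 c12 c16 c24 w : ℕ) : ℕ :=
  bcond (Nat.beq w 0) c0 (bcond (Nat.beq w 8) c8 (bcond (Nat.beq w 12) c12 (bcond (Nat.beq w 16) c16 c24)))

theorem count_tbl (N : ℕ) (hN : N ≤ 64) (c0 c8 c12 c16 c24 : ℕ)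
    (h0 : cntW 0 0 N + cntW 1 0 N = c0) (h8 : cntW 0 8 N + cntW 1 8 N = c8)
    (h12 : cntW 0 12 N + cntW 1 12 N = c12) (h16 : cntW 0 16 N + cntW 1 16 N = c16)
    (h24 : cntW 0 24 N + cntW 1 24 N = c24) (total : ℕ)
    (htot : sumB (fun k => tbl c0 c8 c12 c16 c24 (Enc.popAux (word k) 24)) 4096 = total) :
    {x : GolayPt → ℤ | x ∈ leechLattice ∧ sqNorm x = (N : ℤ)}.ncard = total := by
  refine count_main N hN (tbl c0 c8 c12 c16 c24) ?_ total htot
  rintro w (rfl | rfl | rfl | rfl | rfl)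
  · exact h0
  · exact h8
  · exact h12
  · exact h16
  · exact h24

theorem c32_0 : cntW 0 0 32 + cntW 1 0 32 = 1128 := by decide +kernel
theorem c32_8 : cntW 0 8 32 + cntW 1 8 32 = 152 := by decide +kernel
theorem c32_12 : cntW 0 12 32 + cntW 1 12 32 = 24 := by decide +kernel
theorem c32_16 : cntW 0 16 32 + cntW 1 16 32 = 24 := by decide +kernel
theorem c32_24 : cntW 0 24 32 + cntW 1 24 32 = 24 := by decide +kernel
theorem tot32 : sumB (fun k => tbl 1128 152 24 24 24 (Enc.popAux (word k) 24)) 4096 = 196560 := by decide +kernel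

theorem count32 : {x : GolayPt → ℤ | x ∈ leechLattice ∧ sqNorm x = ((32 : ℕ) : ℤ)}.ncard = 196560 :=
  count_tbl 32 (by norm_num) _ _ _ _ _ c32_0 c32_8 c32_12 c32_16 c32_24 _ tot32

theorem c48_0 : cntW 0 0 48 + cntW 1 0 48 = 2048 := by decide +kernel
theorem c48_8 : cntW 0 8 48 + cntW 1 8 48 = 6144 := by decide +kernel
theorem c48_12 : cntW 0 12 48 + cntW 1 12 48 = 4096 := by decide +kernel
theorem c48_16 : cntW 0 16 48 + cntW 1 16 48 = 2048 := by decide +kernel
theorem c48_24 : cntW 0 24 48 + cntW 1 24 48 = 2048 := by decide +kernel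
theorem tot48 : sumB (fun k => tbl 2048 6144 4096 2048 2048 (Enc.popAux (word k) 24)) 4096 = 16773120 := by decide +kernel

theorem count48 : {x : GolayPt → ℤ | x ∈ leechLattice ∧ sqNorm x = ((48 : ℕ) : ℤ)}.ncard = 16773120 :=
  count_tbl 48 (by norm_num) _ _ _ _ _ c48_0 c48_8 c48_12 c48_16 c48_24 _ tot48

theorem c64_0 : cntW 0 0 64 + cntW 1 0 64 = 218640 := by decide +kernel
theorem c64_8 : cntW 0 8 64 + cntW 1 8 64 = 111040 := by decide +kernel
theorem c64_12 : cntW 0 12 64 + cntW 1 12 64 = 97728 := by decide +kernel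
theorem c64_16 : cntW 0 16 64 + cntW 1 16 64 = 81344 := by decide +kernel
theorem c64_24 : cntW 0 24 64 + cntW 1 24 64 = 48576 := by decide +kernel
theorem tot64 : sumB (fun k => tbl 218640 111040 97728 81344 48576 (Enc.popAux (word k) 24)) 4096 = 398034000 := by decide +kernel

theorem count64 : {x : GolayPt → ℤ | x ∈ leechLattice ∧ sqNorm x = ((64 : ℕ) : ℤ)}.ncard = 398034000 :=
  count_tbl 64 (by norm_num) _ _ _ _ _ c64_0 c64_8 c64_12 c64_16 c64_24 _ tot64

end Cfsg.Agent.Lib.Leech
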