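import Cfsg.Agent.Lib.Leech.Basic

/-!
# Counting lattice vectors of small length with a generating function

The vectors with given parity `m` and code word `A` are coordinatewise in finite sets of residues; the
number with given length and coordinate sum is a digit of a product of big numbers (`digit_sum`).
-/

set_option autoImplicit false

namespace Cfsg.Agent.Lib.Leech

open Cfsg Cfsg.Agent.Lib.Golay Cfsg.Agent.Lib.Compute

/-! ### Digits -/

theorem low_sum_lt {ι : Type*} (F : Finset ι) (e : ι → ℕ) {z : ℕ} (hz : F.card < z) (j : ℕ) :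
    ∑ x ∈ F.filter (fun x => e x < j), z ^ e x + 1 ≤ z ^ j := by
  classical
  induction j with
  | zero => simp
  | succ j ih =>
    have h1 : F.filter (fun x => e x < j + 1) =
        F.filter (fun x => e x < j) ∪ F.filter (fun x => e x = j) := by
      ext x
      simp only [Finset.mem_filter, Finset.mem_union]
      constructor
      · rintro ⟨h, h2⟩
        rcases Nat.lt_succ_iff_lt_or_eq.1 h2 with h3 | h3
        · exact Or.inl ⟨h, h3⟩
        · exact Or.inr ⟨h, h3⟩
      · rintro (⟨h, h2⟩ | ⟨h, h2⟩)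
        · exact ⟨h, by omega⟩
        · exact ⟨h, by omega⟩
    have h2 : Disjoint (F.filter (fun x => e x < j)) (F.filter (fun x => e x = j)) := by
      rw [Finset.disjoint_filter]
      intro x _ h3 h4
      omega
    rw [h1, Finset.sum_union h2]
    have h3 : ∑ x ∈ F.filter (fun x => e x = j), z ^ e x = (F.filter (fun x => e x = j)).card * z ^ j := by
      rw [Finset.sum_congr rfl (g := fun _ => z ^ j)]
      · simp
      · intro x hx
        rw [(Finset.mem_filter.1 hx).2]
    rw [h3, pow_succ]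
    have h4 : (F.filter (fun x => e x = j)).card + 1 ≤ z :=
      lt_of_le_of_lt (Finset.card_filter_le _ _) hz
    nlinarith [Nat.pos_of_ne_zero (pow_ne_zero j (show z ≠ 0 by omega))]

/-- The number of elements at a given exponent is a digit of the sum. -/
theorem digit_sum {ι : Type*} (F : Finset ι) (e : ι → ℕ) {z : ℕ} (hz : F.card < z) (j : ℕ) :
    (∑ x ∈ F, z ^ e x) / z ^ j % z = (F.filter fun x => e x = j).card := by
  classical
  have hz0 : 0 < z := by omega
  have hpow : 0 < z ^ j := pow_pos hz0 j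
  set Lo := F.filter (fun x => e x < j) with hLo
  set Mi := F.filter (fun x => e x = j) with hMi
  set Hi := F.filter (fun x => j < e x) with hHi
  have hsplit : ∑ x ∈ F, z ^ e x = ∑ x ∈ Lo, z ^ e x + Mi.card * z ^ j + z ^ j * (z * ∑ x ∈ Hi, z ^ (e x - j - 1)) := by
    have h1 : ∑ x ∈ Mi, z ^ e x = Mi.card * z ^ j := by
      rw [Finset.sum_congr rfl (g := fun _ => z ^ j)]
      · simp
      · intro x hx
        rw [(Finset.mem_filter.1 hx).2]
    have h2 : ∑ x ∈ Hi, z ^ e x = z ^ j * (z * ∑ x ∈ Hi, z ^ (e x - j - 1)) := by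
      rw [Finset.mul_sum, Finset.mul_sum]
      apply Finset.sum_congr rfl
      intro x hx
      have h3 : j < e x := (Finset.mem_filter.1 hx).2
      rw [← mul_assoc, ← pow_succ, ← pow_add]
      congr 1
      omega
    rw [← h1, ← h2]
    have h3 : F = Lo ∪ (Mi ∪ Hi) := by
      ext x
      simp only [hLo, hMi, hHi, Finset.mem_union, Finset.mem_filter]
      constructor
      · intro h
        rcases lt_trichotomy (e x) j with h4 | h4 | h4
        · exact Or.inl ⟨h, h4⟩
        · exact Or.inr (Or.inl ⟨h, h4⟩)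
        · exact Or.inr (Or.inr ⟨h, h4⟩)
      · rintro (⟨h, -⟩ | ⟨h, -⟩ | ⟨h, -⟩) <;> exact h
    have hd1 : Disjoint Mi Hi := by
      rw [hMi, hHi, Finset.disjoint_filter]
      intro x _ h4 h5
      omega
    have hd2 : Disjoint Lo (Mi ∪ Hi) := by
      rw [Finset.disjoint_union_right]
      constructor
      · rw [hLo, hMi, Finset.disjoint_filter]
        intro x _ h4 h5
        omega
      · rw [hLo, hHi, Finset.disjoint_filter]
        intro x _ h4 h5
        omega
    conv_lhs => rw [h3]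
    rw [Finset.sum_union hd2, Finset.sum_union hd1, add_assoc]
  have hlow : ∑ x ∈ Lo, z ^ e x < z ^ j := low_sum_lt F e hz j
  have hMc : Mi.card < z := lt_of_le_of_lt (Finset.card_filter_le _ _) hz
  have h5 : ∑ x ∈ Lo, z ^ e x + Mi.card * z ^ j + z ^ j * (z * ∑ x ∈ Hi, z ^ (e x - j - 1)) =
      ∑ x ∈ Lo, z ^ e x + z ^ j * (Mi.card + z * ∑ x ∈ Hi, z ^ (e x - j - 1)) := by ring
  rw [hsplit, h5, Nat.add_mul_div_left _ _ hpow, Nat.div_eq_of_lt hlow, zero_add,
    Nat.add_mul_mod_self_left, Nat.mod_eq_of_lt hMc]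

/-! ### The generating function -/

/-- The exponent of a coordinate value. -/
def fv (v : ℤ) : ℕ := 385 * v.natAbs ^ 2 + (v + 8).toNat

theorem gen_eq (s : GolayPt → Finset ℤ) (z : ℕ) :
    ∏ i, ∑ v ∈ s i, z ^ fv v = ∑ x ∈ Fintype.piFinset s, z ^ (∑ i, fv (x i)) := by
  rw [Finset.prod_univ_sum]
  apply Finset.sum_congr rfl
  intro x _
  rw [Finset.prod_pow_eq_pow_sum]

/-- The allowed values in a residue class. -/
noncomputable def res (r : ℤ) : Finset ℤ := (Finset.Icc (-8) 8).filter fun v => v % 4 = r % 4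

theorem res_0 : res 0 = {-8, -4, 0, 4, 8} := by decide +kernel
theorem res_1 : res 1 = {-7, -3, 1, 5} := by decide +kernel
theorem res_2 : res 2 = {-6, -2, 2, 6} := by decide +kernel
theorem res_3 : res 3 = {-5, -1, 3, 7} := by decide +kernel

/-- The generating numbers of the residue classes. -/
def P0 (z : ℕ) : ℕ := z ^ 24640 + z ^ 6164 + z ^ 8 + z ^ 6172 + z ^ 24656
def P1 (z : ℕ) : ℕ := z ^ 18866 + z ^ 3470 + z ^ 394 + z ^ 9638
def P2 (z : ℕ) : ℕ := z ^ 13862 + z ^ 1546 + z ^ 1550 + z ^ 13874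
def P3 (z : ℕ) : ℕ := z ^ 9628 + z ^ 392 + z ^ 3476 + z ^ 18880

theorem sum_res_0 (z : ℕ) : ∑ v ∈ res 0, z ^ fv v = P0 z := by
  rw [res_0]
  simp [fv, P0, Finset.sum_insert]
  ring

theorem sum_res_1 (z : ℕ) : ∑ v ∈ res 1, z ^ fv v = P1 z := by
  rw [res_1]
  simp [fv, P1, Finset.sum_insert]
  ring

theorem sum_res_2 (z : ℕ) : ∑ v ∈ res 2, z ^ fv v = P2 z := by
  rw [res_2]
  simp [fv, P2, Finset.sum_insert]
  ring

theorem sum_res_3 (z : ℕ) : ∑ v ∈ res 3, z ^ fv v = P3 z := by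
  rw [res_3]
  simp [fv, P3, Finset.sum_insert]
  ring

/-- The product for a parity and a weight. -/
def QQ (z m w : ℕ) : ℕ :=
  bcond (Nat.beq m 0) (Nat.mul (Nat.pow (P2 z) w) (Nat.pow (P0 z) (Nat.sub 24 w)))
    (Nat.mul (Nat.pow (P3 z) w) (Nat.pow (P1 z) (Nat.sub 24 w)))

/-- The base of the digits. -/
def zz : ℕ := 1152921504606846976

/-- A sum as a loop. -/
noncomputable def sumB (f : ℕ → ℕ) (n : ℕ) : ℕ := Nat.rec 0 (fun i ih => Nat.add (f i) ih) n

theorem sumB_eq (f : ℕ → ℕ) (n : ℕ) : sumB f n = ∑ i ∈ Finset.range n, f i := by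
  induction n with
  | zero => rfl
  | succ n ih =>
    have h : sumB f (n + 1) = f n + sumB f n := rfl
    rw [h, ih, Finset.sum_range_succ, add_comm]

/-- The number of vectors for a parity, a weight and a squared length. -/
noncomputable def cntW (m w N : ℕ) : ℕ :=
  (fun Q => sumB (fun b => bcond (Nat.beq (Nat.mod b 8) (Nat.mod (Nat.mul 4 m) 8))
    (Nat.mod (Nat.div Q (Nat.pow zz (Nat.add (Nat.mul 385 N) b))) zz) 0) 385) (QQ zz m w)

/-! ### The vectors for a parity and a word -/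

/-- The allowed values at a coordinate. -/
noncomputable def sI (m : ℤ) (A : Finset GolayPt) (i : GolayPt) : Finset ℤ := res (m + 2 * ind A i)

/-- The vectors for a parity and a word. -/
noncomputable def Tset (m : ℤ) (A : Finset GolayPt) (N : ℕ) : Finset (GolayPt → ℤ) :=
  (Fintype.piFinset (sI m A)).filter fun x => sqNorm x = N ∧ (∑ i, x i) % 8 = (4 * m) % 8

theorem mem_sI {m : ℤ} {A : Finset GolayPt} {i : GolayPt} {v : ℤ} :
    v ∈ sI m A i ↔ (-8 ≤ v ∧ v ≤ 8) ∧ v % 4 = (m + 2 * ind A i) % 4 := by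
  simp only [sI, res, Finset.mem_filter, Finset.mem_Icc]

theorem mem_Tset {m : ℤ} {A : Finset GolayPt} {N : ℕ} {x : GolayPt → ℤ} :
    x ∈ Tset m A N ↔ (∀ i, x i ∈ sI m A i) ∧ sqNorm x = N ∧ (∑ i, x i) % 8 = (4 * m) % 8 := by
  simp only [Tset, Finset.mem_filter, Fintype.mem_piFinset]

theorem bound_of_sq {x : GolayPt → ℤ} {N : ℕ} (hN : N ≤ 64) (h : sqNorm x = N) (i : GolayPt) :
    -8 ≤ x i ∧ x i ≤ 8 := by
  have h1 : x i ^ 2 ≤ sqNorm x :=
    Finset.single_le_sum (f := fun i => x i ^ 2) (fun j _ => sq_nonneg _) (Finset.mem_univ i)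
  rw [h] at h1
  have h2 : (N : ℤ) ≤ 64 := by exact_mod_cast hN
  constructor <;> nlinarith

theorem mem_Tset_iff {m : ℤ} {A : Finset GolayPt} {N : ℕ} (hA : A ∈ CS) (hN : N ≤ 64) {x : GolayPt → ℤ} :
    x ∈ Tset m A N ↔ IsData x m A ∧ sqNorm x = N := by
  rw [mem_Tset]
  constructor
  · rintro ⟨h1, h2, h3⟩
    exact ⟨⟨hA, fun i => (mem_sI.1 (h1 i)).2, h3⟩, h2⟩
  · rintro ⟨⟨-, h1, h2⟩, h3⟩
    exact ⟨fun i => mem_sI.2 ⟨bound_of_sq hN h3 i, h1 i⟩, h3, h2⟩

/-- The product over the coordinates. -/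
theorem prod_ite_card (A : Finset GolayPt) (a b : ℕ) :
    ∏ i, (if i ∈ A then a else b) = a ^ A.card * b ^ (24 - A.card) := by
  rw [Finset.prod_ite]
  simp only [Finset.prod_const]
  congr 2
  · congr 1
    ext i
    simp
  · have h1 : (Finset.univ.filter fun i => i ∉ A) = Aᶜ := by
      ext i
      simp
    rw [h1, Finset.card_compl]
    rfl

theorem gen_Q (m : ℕ) (hm : m = 0 ∨ m = 1) (A : Finset GolayPt) (z : ℕ) :
    ∑ x ∈ Fintype.piFinset (sI (m : ℤ) A), z ^ (∑ i, fv (x i)) = QQ z m A.card := by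
  rw [← gen_eq]
  rcases hm with rfl | rfl
  · have h1 : ∀ i, ∑ v ∈ sI ((0 : ℕ) : ℤ) A i, z ^ fv v = if i ∈ A then P2 z else P0 z := by
      intro i
      unfold sI ind
      split_ifs
      · exact sum_res_2 z
      · exact sum_res_0 z
    simp_rw [h1]
    rw [prod_ite_card]
    rfl
  · have h1 : ∀ i, ∑ v ∈ sI ((1 : ℕ) : ℤ) A i, z ^ fv v = if i ∈ A then P3 z else P1 z := by
      intro i
      unfold sI ind
      split_ifs
      · exact sum_res_3 z
      · exact sum_res_1 z
    simp_rw [h1]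
    rw [prod_ite_card]
    rfl

/-- The size of the cube. -/
theorem card_pi_lt (m : ℤ) (A : Finset GolayPt) : (Fintype.piFinset (sI m A)).card < zz := by
  have h1 : ∀ i, (sI m A i).card ≤ 5 := by
    intro i
    have h2 : ∀ r : ℤ, (res r).card ≤ 5 := by
      intro r
      have h3 : r % 4 = 0 ∨ r % 4 = 1 ∨ r % 4 = 2 ∨ r % 4 = 3 := by omega
      have h4 : res r = res (r % 4) := by
        unfold res
        congr 1
        funext v
        rw [Int.emod_emod_of_dvd _ (dvd_refl _)]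
      rw [h4]
      rcases h3 with h3 | h3 | h3 | h3 <;> rw [h3]
      · rw [res_0]; decide
      · rw [res_1]; decide
      · rw [res_2]; decide
      · rw [res_3]; decide
    exact h2 _
  rw [Fintype.card_piFinset]
  calc ∏ i, (sI m A i).card ≤ ∏ _i : GolayPt, 5 := Finset.prod_le_prod' fun i _ => h1 i
    _ = 5 ^ 24 := by simp
    _ < zz := by decide

/-- The exponent as a function of the vector. -/
theorem sum_fv (x : GolayPt → ℤ) :
    ∑ i, fv (x i) = 385 * ∑ i, (x i).natAbs ^ 2 + ∑ i, (x i + 8).toNat := by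
  simp only [fv]
  rw [Finset.sum_add_distrib, Finset.mul_sum]

theorem nn_cast (x : GolayPt → ℤ) : ((∑ i, (x i).natAbs ^ 2 : ℕ) : ℤ) = sqNorm x := by
  push_cast
  unfold sqNorm
  apply Finset.sum_congr rfl
  intro i _
  rw [sq_abs]

theorem bb_cast {x : GolayPt → ℤ} (h : ∀ i, -8 ≤ x i) :
    ((∑ i, (x i + 8).toNat : ℕ) : ℤ) = ∑ i, x i + 192 := by
  push_cast
  have h1 : ∀ i, (((x i + 8).toNat : ℕ) : ℤ) = x i + 8 := fun i => Int.toNat_of_nonneg (by linarith [h i])
  simp_rw [h1]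
  rw [Finset.sum_add_distrib]
  simp

theorem bb_lt {x : GolayPt → ℤ} (h : ∀ i, x i ≤ 8) : ∑ i, (x i + 8).toNat < 385 := by
  have h1 : ∀ i ∈ (Finset.univ : Finset GolayPt), (x i + 8).toNat ≤ 16 := by
    intro i _
    have := h i
    omega
  have h2 := Finset.sum_le_sum h1
  simp only [Finset.sum_const, Finset.card_univ] at h2
  have h3 : Fintype.card GolayPt = 24 := by decide
  rw [h3] at h2
  simp only [smul_eq_mul] at h2
  omega

/-- The main counting statement for a parity and a word. -/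
theorem card_Tset (m : ℕ) (hm : m = 0 ∨ m = 1) (A : Finset GolayPt) (N : ℕ) :
    (Tset (m : ℤ) A N).card = cntW m A.card N := by
  set pi := Fintype.piFinset (sI (m : ℤ) A) with hpi
  set B := (Finset.range 385).filter (fun b => b % 8 = (4 * m) % 8) with hB
  have hmaps : ((Tset (m : ℤ) A N : Finset _) : Set (GolayPt → ℤ)).MapsTo
      (fun x => ∑ i, (x i + 8).toNat) (B : Finset ℕ) := by
    intro x hx
    obtain ⟨h1, h2, h3⟩ := mem_Tset.1 hx
    have h4 : ∀ i, -8 ≤ x i := fun i => (mem_sI.1 (h1 i)).1.1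
    have h5 : ∀ i, x i ≤ 8 := fun i => (mem_sI.1 (h1 i)).1.2
    simp only [hB, Finset.coe_filter, Finset.mem_range, Set.mem_ofPred_eq]
    refine ⟨bb_lt h5, ?_⟩
    have h6 := bb_cast h4
    omega
  rw [Finset.card_eq_sum_card_fiberwise hmaps]
  have hfib : ∀ b ∈ B, ((Tset (m : ℤ) A N).filter fun x => ∑ i, (x i + 8).toNat = b) =
      pi.filter fun x => ∑ i, fv (x i) = 385 * N + b := by
    intro b hb
    obtain ⟨hb1, hb2⟩ := Finset.mem_filter.1 hb
    have hb1' : b < 385 := Finset.mem_range.1 hb1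
    ext x
    simp only [Finset.mem_filter, mem_Tset, hpi, Fintype.mem_piFinset]
    constructor
    · rintro ⟨⟨h1, h2, h3⟩, h4⟩
      refine ⟨h1, ?_⟩
      rw [sum_fv, h4]
      have h5 := nn_cast x
      rw [h2] at h5
      have h6 : ∑ i, (x i).natAbs ^ 2 = N := by exact_mod_cast h5
      rw [h6]
    · rintro ⟨h1, h2⟩
      have h4 : ∀ i, -8 ≤ x i := fun i => (mem_sI.1 (h1 i)).1.1
      have h5 : ∀ i, x i ≤ 8 := fun i => (mem_sI.1 (h1 i)).1.2
      rw [sum_fv] at h2
      have h6 := bb_lt h5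
      have h7 : ∑ i, (x i).natAbs ^ 2 = N := by omega
      have h8 : ∑ i, (x i + 8).toNat = b := by omega
      refine ⟨⟨h1, ?_, ?_⟩, h8⟩
      · rw [← nn_cast, h7]
      · have h9 := bb_cast h4
        rw [h8] at h9
        omega
  rw [Finset.sum_congr rfl (fun b hb => by rw [hfib b hb])]
  have hdig : ∀ b, (pi.filter fun x => ∑ i, fv (x i) = 385 * N + b).card =
      QQ zz m A.card / zz ^ (385 * N + b) % zz := by
    intro b
    rw [← digit_sum pi _ (card_pi_lt _ _), gen_Q m hm]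
  simp_rw [hdig]
  rw [hB, Finset.sum_filter, ← sumB_eq]
  unfold cntW
  congr 1
  funext b
  have h1 : (b % 8 = 4 * m % 8) ↔ Nat.beq (Nat.mod b 8) (Nat.mod (Nat.mul 4 m) 8) = true := by
    constructor
    · intro h
      show Nat.beq (b % 8) (4 * m % 8) = true
      rw [h, Nat.beq_refl]
    · intro h
      exact Nat.eq_of_beq_eq_true h
  by_cases h2 : b % 8 = 4 * m % 8
  · rw [if_pos h2, h1.1 h2, bcond_true]
    rfl
  · rw [if_neg h2]
    have h3 : Nat.beq (Nat.mod b 8) (Nat.mod (Nat.mul 4 m) 8) = false := by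
      cases h4 : Nat.beq (Nat.mod b 8) (Nat.mod (Nat.mul 4 m) 8)
      · rfl
      · exact absurd (h1.2 h4) h2
    rw [h3, bcond_false]

end Cfsg.Agent.Lib.Leech
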