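import Cfsg.Agent.Lib.Leech.Basic
import Cfsg.Agent.Lib.Leech.ModTwo

/-!
# The lattice automorphism group modulo thirteen

The lattice contains `8 ℤ²⁴`, so a lattice automorphism gives a matrix over the integers modulo 13.
Since the squared length of a short vector is `32` and `4 * 32 < 13 ^ 2`, this is faithful.
-/

set_option autoImplicit false

namespace Cfsg.Agent.Lib.Leech

open Cfsg Matrix

/-- The lattice as a type. -/
abbrev LT : Type := ↥leechLattice

/-- Reduction modulo thirteen. -/
def red (x : GolayPt → ℤ) : GolayPt → ZMod 13 := fun i => (x i : ZMod 13)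

theorem red_add (x y : GolayPt → ℤ) : red (x + y) = red x + red y := by
  funext i
  simp [red]

/-- Eight times a basic vector. -/
def E8 (j : GolayPt) : LT :=
  ⟨Pi.single j 8, AddSubgroup.subset_closure (Spor.mem_leechSet_of_const_mod_four _ 0 0 (by decide)
    (fun i => by
      by_cases h : i = j
      · subst h
        simp only [Pi.single_eq_same]
        try decide
      · rw [Pi.single_eq_of_ne h]
        try decide)
    (by
      rw [Finset.sum_pi_single']
      simp
      try decide))⟩

/-- A vector with two non-zero coordinates. -/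
def P4 (j k : GolayPt) (s : ℤ) (hs : s = 4 ∨ s = -4) : LT :=
  ⟨Pi.single j 4 + Pi.single k s, AddSubgroup.subset_closure
    (Spor.mem_leechSet_of_const_mod_four _ 0 0 (by decide)
    (fun i => by
      have h1 : (Pi.single j (4 : ℤ) : GolayPt → ℤ) i ≡ 0 [ZMOD 4] := by
        by_cases h : i = j
        · subst h
          simp only [Pi.single_eq_same]
          try decide
        · rw [Pi.single_eq_of_ne h]
          try decide
      have h2 : (Pi.single k s : GolayPt → ℤ) i ≡ 0 [ZMOD 4] := by
        by_cases h : i = k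
        · subst h
          simp only [Pi.single_eq_same]
          rcases hs with rfl | rfl <;> try decide
        · rw [Pi.single_eq_of_ne h]
          try decide
      simpa using h1.add h2)
    (by
      simp only [Pi.add_apply, Finset.sum_add_distrib, Finset.sum_pi_single', Finset.mem_univ, if_true]
      rcases hs with rfl | rfl <;> decide))⟩

theorem sqNorm_P4 {j k : GolayPt} (hjk : j ≠ k) (s : ℤ) (hs : s = 4 ∨ s = -4) :
    sqNorm ((P4 j k s hs : LT) : GolayPt → ℤ) = 32 := by
  have h1 : ∀ i, ((P4 j k s hs : LT) : GolayPt → ℤ) i ^ 2 =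
      (Pi.single j 16 : GolayPt → ℤ) i + (Pi.single k 16 : GolayPt → ℤ) i := by
    intro i
    show ((Pi.single j 4 : GolayPt → ℤ) i + (Pi.single k s : GolayPt → ℤ) i) ^ 2 = _
    have hs2 : s ^ 2 = 16 := by rcases hs with rfl | rfl <;> norm_num
    by_cases h : i = j
    · subst h
      rw [Pi.single_eq_same, Pi.single_eq_same, Pi.single_eq_of_ne hjk, Pi.single_eq_of_ne hjk]
      norm_num
    · by_cases h' : i = k
      · subst h'
        rw [Pi.single_eq_of_ne h, Pi.single_eq_same, Pi.single_eq_of_ne h, Pi.single_eq_same,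
          zero_add, zero_add, hs2]
      · rw [Pi.single_eq_of_ne h, Pi.single_eq_of_ne h', Pi.single_eq_of_ne h, Pi.single_eq_of_ne h']
        norm_num
  simp only [sqNorm, h1, Finset.sum_add_distrib, Finset.sum_pi_single', Finset.mem_univ, if_true]
  norm_num

theorem E8_eq {j k : GolayPt} : E8 j = P4 j k 4 (Or.inl rfl) + P4 j k (-4) (Or.inr rfl) := by
  apply Subtype.ext
  funext i
  show (Pi.single j 8 : GolayPt → ℤ) i = ((Pi.single j 4 : GolayPt → ℤ) i + (Pi.single k 4 : GolayPt → ℤ) i) +
    ((Pi.single j 4 : GolayPt → ℤ) i + (Pi.single k (-4) : GolayPt → ℤ) i)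
  by_cases h : i = j
  · subst h
    simp only [Pi.single_eq_same]
    by_cases h' : i = k
    · subst h'
      simp
    · simp [Pi.single_eq_of_ne h']
  · by_cases h' : i = k
    · subst h'
      simp [Pi.single_eq_of_ne h]
    · simp [Pi.single_eq_of_ne h, Pi.single_eq_of_ne h']

/-- The lattice automorphism as an additive map. -/
def homOf (f : Equiv.Perm LT) (hf : f ∈ Co0) : LT →+ LT := AddMonoidHom.mk' f hf.1

theorem eight_smul_eq (v : LT) : (8 : ℤ) • v = ∑ j, (v.1 j) • E8 j := by
  apply Subtype.ext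
  funext i
  have h1 : ((∑ j, (v.1 j) • E8 j : LT) : GolayPt → ℤ) i = ∑ j, v.1 j * (Pi.single j 8 : GolayPt → ℤ) i := by
    rw [AddSubgroup.val_finsetSum, Finset.sum_apply]
    rfl
  rw [h1]
  rw [Finset.sum_eq_single i]
  · simp [mul_comm]
  · intro b _ hb
    rw [Pi.single_eq_of_ne hb.symm, mul_zero]
  · simp

/-- The values on the basic vectors determine the automorphism. -/
theorem eight_apply {f : Equiv.Perm LT} (hf : f ∈ Co0) (v : LT) :
    (8 : ℤ) • f v = ∑ j, (v.1 j) • f (E8 j) := by
  have h1 := congrArg (homOf f hf) (eight_smul_eq v)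
  rw [map_zsmul, map_sum] at h1
  simp only [map_zsmul] at h1
  exact h1

theorem eight_apply_coord {f : Equiv.Perm LT} (hf : f ∈ Co0) (v : LT) (i : GolayPt) :
    8 * (f v).1 i = ∑ j, v.1 j * (f (E8 j)).1 i := by
  have h1 := congrArg (fun w : LT => w.1 i) (eight_apply hf v)
  have h2 : ((∑ j, (v.1 j) • f (E8 j) : LT) : GolayPt → ℤ) i = ∑ j, v.1 j * (f (E8 j)).1 i := by
    rw [AddSubgroup.val_finsetSum, Finset.sum_apply]
    rfl
  have h3 : ((8 : ℤ) • f v).1 i = 8 * (f v).1 i := by
    show (8 : ℤ) • (f v).1 i = _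
    simp
  change ((8 : ℤ) • f v).1 i = ((∑ j, (v.1 j) • f (E8 j) : LT) : GolayPt → ℤ) i at h1
  rw [h2, h3] at h1
  exact h1

/-- The matrix of a lattice automorphism modulo thirteen. -/
def Mm (f : Equiv.Perm LT) : Matrix GolayPt GolayPt (ZMod 13) :=
  Matrix.of fun i j => 5 * ((f (E8 j)).1 i : ZMod 13)

theorem five_eight : (5 : ZMod 13) * 8 = 1 := by decide

theorem Mm_red {f : Equiv.Perm LT} (hf : f ∈ Co0) (v : LT) : Mm f *ᵥ red v.1 = red (f v).1 := by
  funext i
  have h1 := congrArg (fun t : ℤ => (t : ZMod 13)) (eight_apply_coord hf v i)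
  simp only [Int.cast_mul, Int.cast_sum] at h1
  show ∑ j, 5 * ((f (E8 j)).1 i : ZMod 13) * (v.1 j : ZMod 13) = ((f v).1 i : ZMod 13)
  have h2 : ((f v).1 i : ZMod 13) = 5 * (8 * ((f v).1 i : ZMod 13)) := by
    rw [← mul_assoc, five_eight, one_mul]
  have h3 : (8 : ZMod 13) = ((8 : ℤ) : ZMod 13) := by decide
  rw [h2, h3, h1, Finset.mul_sum]
  apply Finset.sum_congr rfl
  intro j _
  ring

theorem Mm_mul {f g : Equiv.Perm LT} (hf : f ∈ Co0) : Mm (f * g) = Mm f * Mm g := by
  ext i j
  rw [Matrix.mul_apply]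
  have h1 := congrFun (Mm_red hf (g (E8 j))) i
  show 5 * ((f (g (E8 j))).1 i : ZMod 13) = _
  have h2 : ((f (g (E8 j))).1 i : ZMod 13) = red (f (g (E8 j))).1 i := rfl
  rw [h2, ← h1]
  show 5 * (∑ k, Mm f i k * red (g (E8 j)).1 k) = _
  rw [Finset.mul_sum]
  apply Finset.sum_congr rfl
  intro k _
  show _ = Mm f i k * (5 * _)
  show 5 * (Mm f i k * red (g (E8 j)).1 k) = _
  rw [show red (g (E8 j)).1 k = (((g (E8 j)).1 k : ℤ) : ZMod 13) from rfl]
  ring

theorem Mm_one : Mm (1 : Equiv.Perm LT) = 1 := by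
  ext i j
  show 5 * (((Pi.single j 8 : GolayPt → ℤ) i : ℤ) : ZMod 13) = _
  by_cases h : i = j
  · subst h
    rw [Pi.single_eq_same, Matrix.one_apply_eq]
    decide
  · rw [Pi.single_eq_of_ne h, Matrix.one_apply_ne h]
    simp

/-- Elements congruent modulo thirteen to a vector of small norm are equal to it. -/
theorem eq_of_red_eq {a b : GolayPt → ℤ} (h : red a = red b) (hn : sqNorm a + sqNorm b ≤ 64) : a = b := by
  have h0 : 0 ≤ sqNorm (a + b) := Finset.sum_nonneg fun i _ => by positivity
  have h1 := sqNorm_add_sub b a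
  funext i
  by_contra hne
  have h2 : (13 : ℤ) ∣ a i - b i := by
    have h3 := congrFun h i
    have h4 : ((a i - b i : ℤ) : ZMod 13) = 0 := by
      rw [Int.cast_sub, sub_eq_zero]
      exact h3
    exact (ZMod.intCast_zmod_eq_zero_iff_dvd _ 13).1 h4
  have h5 : a i - b i ≠ 0 := sub_ne_zero.2 hne
  obtain ⟨c, hc⟩ := h2
  have hc0 : c ≠ 0 := by
    rintro rfl
    exact h5 (by simpa using hc)
  have h6 : (a i - b i) ^ 2 ≤ sqNorm (a - b) := by
    have := Finset.single_le_sum (f := fun t => (a t - b t) ^ 2) (fun t _ => by positivity)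
      (Finset.mem_univ i)
    simpa [sqNorm] using this
  have h7 : 169 ≤ (a i - b i) ^ 2 := by
    rw [hc, mul_pow]
    have : 1 ≤ c ^ 2 := by
      have := sq_pos_of_ne_zero hc0
      omega
    omega
  have h8 : sqNorm (a + b) = sqNorm (b + a) := by rw [add_comm]
  have h9 : sqNorm (a - b) + sqNorm (a + b) = 2 * (sqNorm b + sqNorm a) := by
    rw [h8] at *
    linarith [h1]
  linarith

/-! ### The group fixing the short vector -/

/-- The functional vanishing on the orthogonal complement of the short vector. -/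
def phiL : (GolayPt → ZMod 13) →ₗ[ZMod 13] ZMod 13 :=
  LinearMap.proj (R := ZMod 13) (φ := fun _ : GolayPt => ZMod 13) none +
    LinearMap.proj (R := ZMod 13) (φ := fun _ : GolayPt => ZMod 13) (some 0)

theorem phiL_apply (x : GolayPt → ZMod 13) : phiL x = x none + x (some 0) := rfl

theorem dotInt_vecU (w : GolayPt → ℤ) : dotInt w Spor.vecU = 4 * (w none + w (some 0)) := by
  rw [dotInt, Fintype.sum_option]
  have h1 : ∀ t : ZMod 23, w (some t) * Spor.vecU (some t) = if t = 0 then 4 * w (some 0) else 0 := by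
    intro t
    by_cases ht : t = 0
    · subst ht
      simp [Spor.vecU, mul_comm]
    · simp [Spor.vecU, ht]
  simp only [h1, Finset.sum_ite_eq', Finset.mem_univ, if_true]
  simp only [Spor.vecU]
  simp
  ring

theorem dot_pres {f : Equiv.Perm LT} (hf : f ∈ Co0) (v w : LT) :
    dotInt (f v).1 (f w).1 = dotInt v.1 w.1 := by
  have h1 := hf.2 (v + w)
  rw [hf.1] at h1
  have h2 := hf.2 v
  have h3 := hf.2 w
  have key : ∀ a b : GolayPt → ℤ, sqNorm (a + b) = sqNorm a + sqNorm b + 2 * dotInt a b := by
    intro a b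
    simp only [sqNorm, dotInt, Pi.add_apply, Finset.mul_sum, ← Finset.sum_add_distrib]
    refine Finset.sum_congr rfl fun i _ => ?_
    ring
  have h4 := key (f v).1 (f w).1
  have h5 := key v.1 w.1
  have h6 : ((f v + f w : LT) : GolayPt → ℤ) = (f v).1 + (f w).1 := rfl
  have h7 : ((v + w : LT) : GolayPt → ℤ) = v.1 + w.1 := rfl
  rw [h6] at h1
  rw [h7] at h1
  linarith

theorem fix_phi {g : Equiv.Perm LT} (hg : g ∈ Co0) (hu : g Spor.leechU = Spor.leechU)
    (x : GolayPt → ZMod 13) : phiL (Mm g *ᵥ x) = phiL x := by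
  have h1 : phiL ∘ₗ (Mm g).mulVecLin = phiL := by
    apply LinearMap.pi_ext'
    intro j
    ext
    show phiL (Mm g *ᵥ Pi.single j 1) = phiL (Pi.single j 1)
    rw [Matrix.mulVec_single_one]
    -- the integer identity
    have h2 := dot_pres hg (E8 j) Spor.leechU
    rw [hu] at h2
    change dotInt (g (E8 j)).1 Spor.vecU = dotInt (E8 j).1 Spor.vecU at h2
    rw [dotInt_vecU, dotInt_vecU] at h2
    have h3 : (g (E8 j)).1 none + (g (E8 j)).1 (some 0) = (E8 j).1 none + (E8 j).1 (some 0) := by
      linarith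
    have h4 := congrArg (fun t : ℤ => (t : ZMod 13)) h3
    simp only [Int.cast_add] at h4
    rw [phiL_apply, phiL_apply]
    show 5 * ((g (E8 j)).1 none : ZMod 13) + 5 * ((g (E8 j)).1 (some 0) : ZMod 13) = _
    rw [← mul_add, h4, mul_add]
    have h5 : ∀ p : GolayPt, 5 * (((E8 j).1 p : ℤ) : ZMod 13) = (Pi.single j 1 : GolayPt → ZMod 13) p := by
      intro p
      show 5 * (((Pi.single j 8 : GolayPt → ℤ) p : ℤ) : ZMod 13) = _
      by_cases h : p = j
      · subst h
        rw [Pi.single_eq_same, Pi.single_eq_same]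
        decide
      · rw [Pi.single_eq_of_ne h, Pi.single_eq_of_ne h]
        simp
    rw [h5, h5]
  have h9 := LinearMap.congr_fun h1 x
  rw [LinearMap.comp_apply, Matrix.mulVecLin_apply] at h9
  exact h9

/-- The identification of the orthogonal complement with the coordinate space. -/
def e23 : Fin 23 ≃ ZMod 23 := Equiv.refl _

/-- The restriction. -/
def resL : (GolayPt → ZMod 13) →ₗ[ZMod 13] (Fin 23 → ZMod 13) :=
  LinearMap.funLeft _ _ (fun i => some (e23 i))

theorem resL_apply (x : GolayPt → ZMod 13) (i : Fin 23) : resL x i = x (some (e23 i)) := rfl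

/-- The extension to the orthogonal complement. -/
def extL : (Fin 23 → ZMod 13) →ₗ[ZMod 13] (GolayPt → ZMod 13) where
  toFun y p := match p with
    | none => - y (e23.symm 0)
    | some t => y (e23.symm t)
  map_add' y y' := by
    funext p
    cases p with
    | none => simp only [Pi.add_apply]; ring
    | some t => rfl
  map_smul' c y := by
    funext p
    cases p with
    | none => simp only [Pi.smul_apply, smul_eq_mul, RingHom.id_apply]; ring
    | some t => rfl

@[simp] theorem extL_none (y : Fin 23 → ZMod 13) : extL y none = - y (e23.symm 0) := rfl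
@[simp] theorem extL_some (y : Fin 23 → ZMod 13) (t : ZMod 23) : extL y (some t) = y (e23.symm t) := rfl

theorem res_ext (y : Fin 23 → ZMod 13) : resL (extL y) = y := by
  funext i
  rw [resL_apply, extL_some, Equiv.symm_apply_apply]

theorem ext_res {x : GolayPt → ZMod 13} (hx : phiL x = 0) : extL (resL x) = x := by
  funext p
  cases p with
  | none =>
    rw [extL_none, resL_apply, Equiv.apply_symm_apply]
    rw [phiL_apply] at hx
    linear_combination -hx
  | some t => rw [extL_some, resL_apply, Equiv.apply_symm_apply]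

theorem phi_ext (y : Fin 23 → ZMod 13) : phiL (extL y) = 0 := by
  rw [phiL_apply, extL_none, extL_some]
  ring

/-- The linear map on the coordinate space. -/
def rhoL (f : Equiv.Perm LT) : Module.End (ZMod 13) (Fin 23 → ZMod 13) :=
  resL ∘ₗ (Mm f).mulVecLin ∘ₗ extL

theorem rhoL_apply (f : Equiv.Perm LT) (y : Fin 23 → ZMod 13) : rhoL f y = resL (Mm f *ᵥ extL y) := rfl

theorem rhoL_mul {f g : Equiv.Perm LT} (hf : f ∈ Co0) (hg : g ∈ Co0) (hu : g Spor.leechU = Spor.leechU) :
    rhoL (f * g) = rhoL f * rhoL g := by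
  refine LinearMap.ext fun y => ?_
  have h1 : phiL (Mm g *ᵥ extL y) = 0 := by
    rw [fix_phi hg hu, phi_ext]
  rw [Module.End.mul_apply, rhoL_apply, rhoL_apply, rhoL_apply, ext_res h1, Mm_mul hf,
    Matrix.mulVec_mulVec]

theorem rhoL_one : rhoL (1 : Equiv.Perm LT) = 1 := by
  refine LinearMap.ext fun y => ?_
  rw [rhoL_apply, Mm_one, Matrix.one_mulVec, res_ext]
  rfl

theorem eq_one_of_rhoL {f : Equiv.Perm LT} (hf : f ∈ Co0) (hu : f Spor.leechU = Spor.leechU)
    (h : rhoL f = 1) : f = 1 := by
  -- the matrix is the identity on the complement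
  have h1 : ∀ x, phiL x = 0 → Mm f *ᵥ x = x := by
    intro x hx
    have h2 : phiL (Mm f *ᵥ x) = 0 := by rw [fix_phi hf hu, hx]
    have h3 := congrArg (fun T : Module.End (ZMod 13) (Fin 23 → ZMod 13) => T (resL x)) h
    simp only [rhoL_apply, ext_res hx] at h3
    have h4 := congrArg extL h3
    rw [ext_res h2] at h4
    rw [h4]
    exact ext_res hx
  -- the short vector is fixed
  have h2 : Mm f *ᵥ red Spor.vecU = red Spor.vecU := by
    have := Mm_red hf Spor.leechU
    rw [hu] at this
    exact this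
  have h2u : phiL (red Spor.vecU) = 8 := by
    rw [phiL_apply]
    decide
  have h3 : ∀ x, Mm f *ᵥ x = x := by
    intro x
    have h4 : phiL (x - (5 * phiL x) • red Spor.vecU) = 0 := by
      rw [map_sub, map_smul, h2u, smul_eq_mul]
      have : (5 : ZMod 13) * phiL x * 8 = phiL x := by
        linear_combination (phiL x) * five_eight
      rw [this, sub_self]
    have h5 := h1 _ h4
    rw [Matrix.mulVec_sub, Matrix.mulVec_smul, h2] at h5
    exact sub_left_injective h5
  -- vectors of small norm are fixed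
  have h4 : ∀ v : LT, sqNorm v.1 = 32 → f v = v := by
    intro v hv
    have h5 := Mm_red hf v
    rw [h3] at h5
    apply Subtype.ext
    apply eq_of_red_eq h5.symm
    rw [hf.2 v, hv]
    norm_num
  -- the basic vectors are fixed
  have h5 : ∀ j, f (E8 j) = E8 j := by
    intro j
    obtain ⟨k, hk⟩ : ∃ k : GolayPt, j ≠ k := by
      cases j with
      | none => exact ⟨some 0, by simp⟩
      | some t => exact ⟨none, by simp⟩
    rw [E8_eq (k := k), hf.1, h4 _ (sqNorm_P4 hk _ _), h4 _ (sqNorm_P4 hk _ _)]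
  ext1 v
  apply Subtype.ext
  funext i
  have h6 := eight_apply_coord hf v i
  have h7 := eight_apply_coord (f := 1) (Subgroup.one_mem _) v i
  simp only [h5] at h6
  have h8 : 8 * (f v).1 i = 8 * ((1 : Equiv.Perm LT) v).1 i := by
    rw [h6, h7]
    rfl
  exact mul_left_cancel₀ (by norm_num) h8

/-- The thirteen-modular representation of the stabilizer of the short vector. -/
noncomputable def toMatrix13 : ↥Spor.Co2 →* Matrix (Fin 23) (Fin 23) (ZMod 13) where
  toFun f := LinearMap.toMatrix' (rhoL f.1)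
  map_one' := by
    show LinearMap.toMatrix' (rhoL (1 : Equiv.Perm LT)) = 1
    rw [rhoL_one]
    exact LinearMap.toMatrix'_id
  map_mul' f g := by
    show LinearMap.toMatrix' (rhoL (f.1 * g.1)) = _
    rw [rhoL_mul f.2.1 g.2.1 g.2.2]
    exact LinearMap.toMatrix'_comp _ _

theorem exists_rep13 : ∃ f : ↥Spor.Co2 →* GL (Fin 23) (ZMod 13), Function.Injective f := by
  refine ⟨MonoidHom.toHomUnits toMatrix13, ?_⟩
  rw [injective_iff_map_eq_one]
  intro f hf
  have h1 : toMatrix13 f = 1 := by
    have := congrArg Units.val hf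
    simpa using this
  have h2 : LinearMap.toMatrix' (rhoL f.1) = LinearMap.toMatrix' LinearMap.id := by
    rw [LinearMap.toMatrix'_id]
    exact h1
  have h3 := LinearMap.toMatrix'.injective h2
  exact Subtype.ext (eq_one_of_rhoL f.2.1 f.2.2 h3)

end Cfsg.Agent.Lib.Leech
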